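/-
Width one: no two different members commute.
-/
import Mathlib
import Cfsg.Prelude.Def_FischerSpaces
import Cfsg.Agent.Lib.PLocal.Core
import Cfsg.Agent.Lib.T3.Basic
import Cfsg.Agent.Lib.Z3Inv.Basic

set_option autoImplicit false
set_option linter.unusedVariables false
set_option linter.unusedSectionVars false

namespace CfsgLib.Z3Inv

open Subgroup Cfsg

variable {G : Type*} [Group G] [Finite G]

theorem eq_one_of_sq_core3' {x : G} (hx : x ∈ Cfsg.pCore 3 G) (h2 : x * x = 1) : x = 1 := by
  haveI : Fact (Nat.Prime 3) := ⟨Nat.prime_three⟩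
  obtain ⟨n, hn⟩ := order_of_mem (CfsgLib.PLocal.pCore_isPGroup (p := 3) (G := G)) hx
  have h3 : orderOf x ∣ 2 := orderOf_dvd_of_pow_eq_one (by rw [pow_two]; exact h2)
  rw [hn] at h3
  cases n with
  | zero =>
    rw [pow_zero] at hn
    exact orderOf_eq_one_iff.mp hn
  | succ n =>
    exfalso
    have : 3 ∣ 2 := dvd_trans (dvd_pow_self 3 (Nat.succ_ne_zero n)) h3
    omega

theorem main_5346 {D : Set G} (hD : IsThreeTranspositionGroup D) {d : G} (hd : d ∈ D) :
    commutingWidth D = 1 ↔ Subgroup.zpowers d ⊔ Cfsg.pCore 3 G = ⊤ := by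
  classical
  haveI : Fact (Nat.Prime 3) := ⟨Nat.prime_three⟩
  have hN := CfsgLib.PLocal.pCore_normal' (p := 3) (G := G)
  have hfin : D.Finite := Set.toFinite D
  have hinv : ∀ {a : G}, a ∈ D → a * a = 1 := fun ha => CfsgLib.T3.sq_of_order_two (hD.1.1 _ ha)
  have hinv' : ∀ {a : G}, a ∈ D → a⁻¹ = a := fun ha => CfsgLib.T3.inv_of_order_two (hD.1.1 _ ha)
  have hbdd : BddAbove {n : ℕ | ∃ E : Set G, E ⊆ D ∧ E.Finite ∧ (∀ a ∈ E, ∀ b ∈ E, Commute a b) ∧ E.ncard = n} := by
    refine ⟨D.ncard, ?_⟩
    rintro n ⟨E, hE, _, _, rfl⟩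
    exact Set.ncard_le_ncard hE hfin
  constructor
  · intro hw
    -- no two different members commute
    have hnc : ∀ a ∈ D, ∀ b ∈ D, a ≠ b → ¬ Commute a b := by
      intro a ha b hb hab hc
      have h2 : 2 ∈ {n : ℕ | ∃ E : Set G, E ⊆ D ∧ E.Finite ∧ (∀ a ∈ E, ∀ b ∈ E, Commute a b) ∧ E.ncard = n} := by
        refine ⟨{a, b}, ?_, Set.toFinite _, ?_, Set.ncard_pair hab⟩
        · rintro x (rfl | rfl)
          · exact ha
          · exact hb
        · rintro x (rfl | rfl) y (rfl | rfl)
          · exact Commute.refl _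
          · exact hc
          · exact hc.symm
          · exact Commute.refl _
      have h3 := le_csSup hbdd h2
      have h4 : sSup {n : ℕ | ∃ E : Set G, E ⊆ D ∧ E.Finite ∧ (∀ a ∈ E, ∀ b ∈ E, Commute a b) ∧ E.ncard = n} = 1 := hw
      omega
    have hclass : ∀ a ∈ conjugatesOf d, a ∈ D := by
      intro a ha
      obtain ⟨g, rfl⟩ := isConj_iff.mp ha
      exact hD.2.1 g d hd
    have hord : orderOf d = 2 := hD.1.1 d hd
    have hprod : ∀ a ∈ conjugatesOf d, ∀ b ∈ conjugatesOf d, ∃ k : ℕ, orderOf (a * b) = 3 ^ k := by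
      intro a ha b hb
      have ha' := hclass a ha
      have hb' := hclass b hb
      by_cases hab : a = b
      · refine ⟨0, ?_⟩
        rw [pow_zero, orderOf_eq_one_iff, hab]
        exact hinv hb'
      · refine ⟨1, ?_⟩
        rw [pow_one]
        apply orderOf_eq_prime
        · exact CfsgLib.T3.cube_of_not_commute hD.1 ha' hb' (hnc a ha' b hb' hab)
        · intro h1
          exact hab (mul_right_cancel (h1.trans (hinv hb').symm))
    have hmain := CfsgLib.Z3Inv.main d hord hprod
    have hconj : ∀ a ∈ D, a ∈ conjugatesOf d := by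
      intro a ha
      by_cases had : a = d
      · rw [had]
        exact mem_conjugatesOf_self
      · have hnc' := hnc d hd a ha (Ne.symm had)
        have hbr := CfsgLib.T3.braid_of_cube (hinv hd) (hinv ha) (CfsgLib.T3.cube_of_not_commute hD.1 hd ha hnc')
        refine isConj_iff.mpr ⟨d * a * d, ?_⟩
        have e1 : (d * a * d)⁻¹ = d * a * d := by
          rw [mul_inv_rev, mul_inv_rev, hinv' hd, hinv' ha]
          group
        rw [e1]
        calc d * a * d * d * (d * a * d) = (d * a) * (d * d) * (d * a * d) := by group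
          _ = d * a * (d * a * d) := by rw [hinv hd, mul_one]
          _ = (d * a * d) * a * d := by group
          _ = (a * d * a) * a * d := by rw [hbr]
          _ = a * d * (a * a) * d := by group
          _ = a * (d * d) := by rw [hinv ha]; group
          _ = a := by rw [hinv hd, mul_one]
    rw [eq_top_iff, ← hD.2.2, Subgroup.closure_le]
    intro a ha
    have h1 := hmain a (hconj a ha) d mem_conjugatesOf_self
    have e : a = (a * d) * d := by
      rw [mul_assoc, hinv hd, mul_one]
    rw [e]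
    exact mul_mem (Subgroup.mem_sup_right h1) (Subgroup.mem_sup_left (Subgroup.mem_zpowers d))
  · intro htop
    -- shape of the members
    have hshape : ∀ a ∈ D, ∃ y ∈ Cfsg.pCore 3 G, a = d * y := by
      intro a ha
      have ha1 : a ∈ (Subgroup.zpowers d ⊔ Cfsg.pCore 3 G : Subgroup G) := by
        rw [htop]
        trivial
      rw [← SetLike.mem_coe, Subgroup.mul_normal, Set.mem_mul] at ha1
      obtain ⟨x, hx, y, hy, rfl⟩ := ha1
      have hxz : x = 1 ∨ x = d := by
        obtain ⟨k, rfl⟩ := Subgroup.mem_zpowers_iff.mp hx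
        rcases Int.even_or_odd' k with ⟨m, rfl | rfl⟩
        · left
          rw [zpow_mul, zpow_two, hinv hd, one_zpow]
        · right
          rw [zpow_add, zpow_mul, zpow_two, hinv hd, one_zpow, one_mul, zpow_one]
      rcases hxz with rfl | rfl
      · exfalso
        rw [one_mul] at ha
        have h1 := eq_one_of_sq_core3' hy (hinv ha)
        have h2 := hD.1.1 y ha
        rw [h1, orderOf_one] at h2
        omega
      · exact ⟨y, hy, rfl⟩
    have heq : ∀ a ∈ D, ∀ b ∈ D, Commute a b → a = b := by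
      intro a ha b hb hc
      obtain ⟨y, hy, rfl⟩ := hshape a ha
      obtain ⟨z, hz, rfl⟩ := hshape b hb
      have hq : y⁻¹ * z ∈ Cfsg.pCore 3 G := mul_mem (inv_mem hy) hz
      have e1 : y⁻¹ * z = (d * y)⁻¹ * (d * z) := by group
      have h2 : (y⁻¹ * z) * (y⁻¹ * z) = 1 := by
        rw [e1, hinv' ha]
        have hce := hc.eq
        calc d * y * (d * z) * (d * y * (d * z)) = d * y * ((d * z) * (d * y)) * (d * z) := by group
          _ = d * y * ((d * y) * (d * z)) * (d * z) := by rw [← hce]
          _ = ((d * y) * (d * y)) * ((d * z) * (d * z)) := by group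
          _ = 1 := by rw [hinv ha, hinv hb, one_mul]
      have h3 := eq_one_of_sq_core3' hq h2
      have h4 : y = z := by
        have := inv_mul_eq_one.mp h3
        exact this
      rw [h4]
    show sSup {n : ℕ | ∃ E : Set G, E ⊆ D ∧ E.Finite ∧ (∀ a ∈ E, ∀ b ∈ E, Commute a b) ∧ E.ncard = n} = 1
    apply IsGreatest.csSup_eq
    constructor
    · refine ⟨{d}, ?_, Set.toFinite _, ?_, Set.ncard_singleton d⟩
      · rintro x rfl
        exact hd
      · rintro x rfl y rfl
        exact Commute.refl _
    · rintro n ⟨E, hE, hEf, hEc, rfl⟩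
      rw [Set.ncard_le_one_iff]
      intro a b ha hb
      exact heq a (hE ha) b (hE hb) (hEc a ha b hb)

end CfsgLib.Z3Inv
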